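import Cfsg.Agent.H148.HT.CardD4
import Cfsg.Agent.ClassicalGeometry.PSL2Basic
import Cfsg.Agent.H311.HexCard
import Cfsg.Agent.Cit.HexD4
import Cfsg.Agent.S1067

/-!
# S4933, `³D₄(q)`, `3 ∣ q + 1`: the index of the parabolic subgroup (helper148)

* `card_U_td4 : |U| = q¹¹`, `card_PP_td4 : |P| = q¹² (q² - 1) (q³ - 1)`,
  `index_PP_td4 : |G : P| = (q³ + 1) (q⁸ + q⁴ + 1)`.
-/

set_option autoImplicit false

namespace Cfsg.Agent.H148.HT

open Cfsg Cfsg.Lie Cfsg.Agent.SplitTwo Cfsg.Agent.TitsThree.RankTwoZ Cfsg.Agent.Lib.SL2Mat Cfsg.Agent.Cit.HexBase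
  Cfsg.Agent.Cit.HexBase.HexGrp Cfsg.Agent.H148.SLTwo Cfsg.Agent.H148.Hex Cfsg.Agent.H912.HT

universe u

section gen

variable {E : Type*} [Field E] [Finite E] {σ : E ≃+* E} {L : Type u} [Group L] (c : HexGrp σ L) {q : ℕ}
  (hE : Nat.card E = q ^ 3) (hF : Nat.card ↥(fx σ) = q) (hq : 2 ≤ q)

include hF in
theorem card_SL2_fx : Nat.card (SL2 ↥(fx σ)) = q * (q ^ 2 - 1) := by
  have : Finite ↥(fx σ) := inferInstance
  have : Fintype ↥(fx σ) := Fintype.ofFinite _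
  have h := Cfsg.Agent.ClassicalGeometry.PSL2Basic.card_SL2 (F := ↥(fx σ))
  rw [← Nat.card_eq_fintype_card, hF] at h
  exact h

include hE hF in
theorem card_U_q : Nat.card ↥(Sg c.X Qb) = q ^ 11 := by
  rw [card_U, hE, hF]
  ring

include hE hF hq in
theorem card_PP_q : Nat.card ↥(PP c) = q ^ 12 * (q ^ 2 - 1) * (q ^ 3 - 1) := by
  rw [card_PP, card_U_q c hE hF, card_LL c (by rw [hF]; exact hq), card_SL2_fx hF, hE]
  ring

include hE hF hq in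
theorem index_PP_q (hL : Nat.card L = q ^ 12 * (q ^ 2 - 1) * (q ^ 6 - 1) * (q ^ 8 + q ^ 4 + 1)) :
    (PP c).index = (q ^ 3 + 1) * (q ^ 8 + q ^ 4 + 1) := by
  have h1 := (PP c).card_mul_index
  rw [hL, card_PP_q c hE hF hq] at h1
  have h2 : q ^ 6 - 1 = (q ^ 3 - 1) * (q ^ 3 + 1) := by
    have e : q ^ 6 - 1 = (q ^ 3) ^ 2 - 1 ^ 2 := by rw [← pow_mul, one_pow]
    rw [e, Nat.sq_sub_sq, mul_comm]
  have h3 : 0 < q ^ 2 - 1 := by
    have : 2 ^ 2 ≤ q ^ 2 := Nat.pow_le_pow_left hq 2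
    omega
  have h4 : 0 < q ^ 3 - 1 := by
    have : 2 ^ 3 ≤ q ^ 3 := Nat.pow_le_pow_left hq 3
    omega
  have h5 : 0 < q ^ 12 := Nat.pow_pos (by omega)
  refine Nat.eq_of_mul_eq_mul_left (Nat.mul_pos (Nat.mul_pos h5 h3) h4) ?_
  rw [h1, h2]
  ring

end gen

section td4

variable {K : Type*} [Field K] [Fintype K] {q : ℕ} (hK : Fintype.card K = q ^ 3) {σ : K ≃+* K}
  (hσ : ∀ x, σ x = x ^ q) (c : HexGrp σ ↥(twistedD4 K q))

include hK hσ in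
theorem card_U_td4 : Nat.card ↥(Sg c.X Qb) = q ^ 11 :=
  card_U_q c (by rw [Nat.card_eq_fintype_card, hK]) (Cfsg.Agent.H311.card_fx hK hσ)

include hK hσ in
theorem card_PP_td4 : Nat.card ↥(PP c) = q ^ 12 * (q ^ 2 - 1) * (q ^ 3 - 1) :=
  card_PP_q c (by rw [Nat.card_eq_fintype_card, hK]) (Cfsg.Agent.H311.card_fx hK hσ)
    (Cfsg.Agent.Cit.HexD4.isPrimePow_of_card hK).two_le

include hK hσ in
theorem index_PP_td4 : (PP c).index = (q ^ 3 + 1) * (q ^ 8 + q ^ 4 + 1) :=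
  index_PP_q c (by rw [Nat.card_eq_fintype_card, hK]) (Cfsg.Agent.H311.card_fx hK hσ)
    (Cfsg.Agent.Cit.HexD4.isPrimePow_of_card hK).two_le
    (Cfsg.Agent.S1067.result (Cfsg.Agent.Cit.HexD4.isPrimePow_of_card hK) hK)

end td4

end Cfsg.Agent.H148.HT
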